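import Cfsg.Agent.Lib.ToddCox.U62C6.Data
set_option autoImplicit false
set_option maxRecDepth 100000
namespace Cfsg.Agent.Lib.ToddCox.U62C6
theorem wordsGood : allBelow (wordsOK W (relR Rb inv) inv sp) nW 1 = true := by decide +kernel
theorem d0 : allBits (fun k => bif Nat.blt k 5 then chkDef Eo inv k else true) 13 0 = true := by decide +kernel
theorem s0 : chkStream Eo inv W isH 1 5 0x10000004000000000000c00000e000000 = true := by decide +kernel
theorem c0 : Covered Eo inv W isH 5 6 := covered_of_stream 1 5 _ s0
theorem l0 : chkPoints Eo cF (2 * nEv) N ys 6 0 0x50000010000012000003000005800001400000e0000020000028000004000010000005000001800000000000c000004000002000000c0000020000000000010000008000000000001 = true := by decide +kernel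
theorem k0 : LinksOK Eo cF (2 * nEv) N ys 0 6 := linksOK_of_points 6 0 _ l0
end Cfsg.Agent.Lib.ToddCox.U62C6
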